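import Cfsg.Agent.H250.JOver

/-!
# J(T)-components in members of `jOvergroups T`
-/

set_option autoImplicit false
set_option linter.style.haveILetI false
set_option linter.unusedSectionVars false

namespace Cfsg.Agent.H250.JBasic

open Subgroup Cfsg
open Cfsg.Agent.ZN
open Cfsg.Agent.PLocal.ThompsonJ
open Cfsg.Agent.PLocal.FFCoprime (omegaJoin)

universe u

/-! ### Sylow 2-subgroups of subgroups -/

section Sylow

variable {G : Type u} [Group G] [Finite G]

theorem exists_isSylowTwoIn {P L : Subgroup G} (hP : IsPGroup 2 P) (hPL : P ≤ L) :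
    ∃ S, IsSylowTwoIn S L ∧ P ≤ S := by
  haveI : Fact (Nat.Prime 2) := ⟨Nat.prime_two⟩
  have h1 : IsPGroup 2 (P.subgroupOf L) := hP.of_equiv (subgroupOfEquivOfLe hPL).symm
  obtain ⟨S, hS⟩ := h1.exists_le_sylow
  refine ⟨(S : Subgroup L).map L.subtype, ⟨map_subtype_le _, S.2.map _, ?_⟩, ?_⟩
  · have h2 := S.not_dvd_index
    rw [relIndex, subgroupOf, comap_map_eq_self_of_injective L.subtype_injective,
      ← Nat.not_even_iff_odd, even_iff_two_dvd]
    exact h2
  · intro x hx
    exact ⟨⟨x, hPL hx⟩, hS (show (⟨x, hPL hx⟩ : L) ∈ P.subgroupOf L from hx), rfl⟩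

theorem IsSylowTwoIn.not_dvd {S L : Subgroup G} (h : IsSylowTwoIn S L) : ¬ 2 ∣ S.relIndex L := by
  rw [← even_iff_two_dvd, Nat.not_even_iff_odd]
  exact h.2.2

theorem IsSylowTwoIn.exists_sylow {S L : Subgroup G} (h : IsSylowTwoIn S L) :
    ∃ P : Sylow 2 L, (P : Subgroup L) = S.subgroupOf L := by
  haveI : Fact (Nat.Prime 2) := ⟨Nat.prime_two⟩
  have h1 : IsPGroup 2 (S.subgroupOf L) := h.2.1.of_equiv (subgroupOfEquivOfLe h.1).symm
  exact ⟨h1.toSylow (IsSylowTwoIn.not_dvd h), rfl⟩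

theorem isSylowTwoIn_conj {S S' L : Subgroup G} (h : IsSylowTwoIn S L) (h' : IsSylowTwoIn S' L) :
    ∃ l ∈ L, S.map (MulAut.conj l).toMonoidHom = S' := by
  haveI : Fact (Nat.Prime 2) := ⟨Nat.prime_two⟩
  obtain ⟨P, hP⟩ := IsSylowTwoIn.exists_sylow h
  obtain ⟨P', hP'⟩ := IsSylowTwoIn.exists_sylow h'
  obtain ⟨l, hl⟩ := MulAction.exists_smul_eq L P P'
  refine ⟨l, l.2, ?_⟩
  have h1 : ((P' : Subgroup L) : Set L) = (((l • P : Sylow 2 L) : Subgroup L) : Set L) := by
    rw [hl]
  rw [Sylow.coe_subgroup_smul] at h1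
  ext x
  constructor
  · rintro ⟨s, hs, rfl⟩
    have h2 : (⟨s, h.1 hs⟩ : L) ∈ (P : Subgroup L) := by rw [hP]; exact hs
    have h3 : MulAut.conj l • (⟨s, h.1 hs⟩ : L) ∈ ((P' : Subgroup L) : Set L) := by
      rw [h1]
      exact Subgroup.smul_mem_pointwise_smul _ (MulAut.conj l) _ h2
    have h4 : MulAut.conj l • (⟨s, h.1 hs⟩ : L) ∈ S'.subgroupOf L := by rw [← hP']; exact h3
    exact h4
  · intro hx
    have h2 : (⟨x, h'.1 hx⟩ : L) ∈ ((P' : Subgroup L) : Set L) := by
      rw [SetLike.mem_coe, hP']; exact hx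
    rw [h1] at h2
    obtain ⟨s, hs, hsx⟩ := h2
    have h3 : s ∈ S.subgroupOf L := by rw [← hP]; exact hs
    refine ⟨(s : G), h3, ?_⟩
    exact congrArg Subtype.val hsx

/-- An element of `N_G(S)`-type statement: `L ∩ N(S)` normalizes the Sylow subgroup `L ∩ S`. -/
theorem inf_eq_of_isSylowTwoIn {S T L : Subgroup G} (hT : IsSylowTwoIn T L) (hTS : T ≤ S)
    (hS : IsPGroup 2 S) : L ⊓ S = T := by
  haveI : Fact (Nat.Prime 2) := ⟨Nat.prime_two⟩
  have h1 : T ≤ L ⊓ S := le_inf hT.1 hTS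
  have h2 := relIndex_mul_relIndex T (L ⊓ S) L h1 inf_le_left
  have h3 : T.relIndex (L ⊓ S) = 1 := by
    have h4 : IsPGroup 2 ↥(L ⊓ S) := hS.to_le inf_le_right
    obtain ⟨n, hn⟩ := IsPGroup.iff_card.1 h4
    have h5 : T.relIndex (L ⊓ S) ∣ 2 ^ n := by rw [← hn]; exact relIndex_dvd_card _ _
    have h6 : T.relIndex (L ⊓ S) ∣ T.relIndex L := ⟨_, h2.symm⟩
    have h7 : Nat.Coprime (T.relIndex L) (2 ^ n) := Nat.Coprime.pow_right _
      hT.2.2.coprime_two_right
    exact Nat.eq_one_of_dvd_coprimes h7 h6 h5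
  exact le_antisymm (relIndex_eq_one.1 h3) h1

end Sylow

/-! ### transport of `JC` -/

theorem JC.of_map {G G' : Type u} [Group G] [Group G'] {J K : Subgroup G} (f : G →* G')
    (hf : Function.Injective f) (h : JC (J.map f) (K.map f)) : JC J K where
  odd := by
    have h1 := h.odd
    rw [oddGen_map f hf] at h1
    exact map_injective hf h1
  comm := by
    have h1 := h.comm
    rw [← map_commutator] at h1
    exact map_injective hf h1
  idx := by
    have h1 := h.idx
    rwa [o2_map f hf, relIndex_map_map_of_injective _ _ hf] at h1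
  syl := by
    intro S hS hJS
    have h1 := h.syl (S.map f) (by
      rw [← Subgroup.map_sup, isSylowTwoIn_map f hf]; exact hS) (Subgroup.map_mono hJS)
    rw [jj_map f hf] at h1
    exact map_injective hf h1
  cardW := by
    have h1 := h.cardW
    rwa [wOf_map f hf, card_map_injective _ hf] at h1
  sqW := by
    intro w hw
    have h1 := h.sqW (f w) (by rw [wOf_map f hf]; exact ⟨w, hw, rfl⟩)
    apply hf
    rw [map_pow, h1, map_one]

theorem JC.map_hom {G G' : Type u} [Group G] [Group G'] {J K : Subgroup G} (f : G →* G')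
    (hf : Function.Injective f) (h : JC J K) : JC (J.map f) (K.map f) where
  odd := by rw [oddGen_map _ hf, h.odd]
  comm := by rw [← map_commutator, h.comm]
  idx := by rw [o2_map _ hf, relIndex_map_map_of_injective _ _ hf, h.idx]
  syl := by
    intro S hS hJS
    have hSr : S ≤ f.range := by
      refine hS.1.trans ?_
      rw [← Subgroup.map_sup]
      exact map_le_range _ _
    obtain ⟨S', rfl⟩ : ∃ S' : Subgroup G, S'.map f = S :=
      ⟨S.comap f, map_comap_eq_self hSr⟩
    rw [← Subgroup.map_sup, isSylowTwoIn_map _ hf] at hS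
    rw [map_le_map_iff_of_injective hf] at hJS
    rw [jj_map _ hf, h.syl S' hS hJS]
  cardW := by rw [wOf_map _ hf, card_map_injective _ hf, h.cardW]
  sqW := by
    rw [wOf_map _ hf]
    rintro _ ⟨w, hw, rfl⟩
    rw [← map_pow, h.sqW w hw, map_one]

/-! ### members of `jOvergroups T` -/

section Over

variable {G : Type u} [Group G] [Finite G] {T L K : Subgroup G}

theorem mem_jOvergroups_iff : L ∈ jOvergroups T ↔
    IsSylowTwoIn T L ∧ ¬ jj T ≤ o2 L ∧ centralizer (o2 L : Set G) ≤ o2 L := Iff.rfl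

theorem over_o2_ne_bot (hG : Even (Nat.card G)) (hL : L ∈ jOvergroups T) : o2 L ≠ ⊥ := by
  intro hb
  obtain ⟨-, -, h3⟩ := mem_jOvergroups_iff.1 hL
  rw [hb] at h3
  have h4 : (⊤ : Subgroup G) ≤ ⊥ := by
    intro x _
    apply h3
    rw [mem_centralizer_iff]
    intro y hy
    rw [mem_bot.1 hy, one_mul, mul_one]
  have h5 : Nat.card G = 1 := by
    rw [← Subgroup.card_top (G := G), le_antisymm h4 bot_le, Subgroup.card_bot]
  rw [h5] at hG
  exact absurd hG (by decide)

theorem over_solvable (hG : Even (Nat.card G))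
    (hN : ∀ N : Subgroup G, Cfsg.IsTwoLocal N → Group.IsSolvable ↥N)
    (hL : L ∈ jOvergroups T) : Group.IsSolvable ↥L := by
  have h1 := hN (normalizer (o2 L : Set G)) ⟨o2 L, isPGroup_o2 L, over_o2_ne_bot hG hL, rfl⟩
  have h2 : L ≤ normalizer (o2 L : Set G) := le_normalizer_o2 L
  exact Group.isSolvable_of_isSolvable_injective (inclusion_injective h2)

theorem over_pCore (hL : L ∈ jOvergroups T) :
    centralizer (pCore 2 ↥L : Set ↥L) ≤ pCore 2 ↥L := by
  obtain ⟨-, -, h3⟩ := mem_jOvergroups_iff.1 hL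
  intro x hx
  have h4 : (x : G) ∈ centralizer (o2 L : Set G) := by
    rw [mem_centralizer_iff]
    rintro _ ⟨y, hy, rfl⟩
    exact congrArg Subtype.val (mem_centralizer_iff.1 hx y hy)
  obtain ⟨y, hy, hyx⟩ := h3 h4
  have : y = x := Subtype.ext hyx
  rw [← this]; exact hy

theorem over_centralizer
    (hZ : ∀ S : Sylow 2 G, centralizer (omegaCenterOf (S : Subgroup G) : Set G) ≤
      normalizer ((S : Subgroup G) : Set G))
    (hT : IsPGroup 2 T) (hL : L ∈ jOvergroups T) :
    L ⊓ centralizer (zc T : Set G) ≤ normalizer (T : Set G) := by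
  haveI : Fact (Nat.Prime 2) := ⟨Nat.prime_two⟩
  obtain ⟨h1, -, h3⟩ := mem_jOvergroups_iff.1 hL
  obtain ⟨S, hS⟩ := hT.exists_le_sylow
  have hQT : o2 L ≤ T := o2_le_of_sylow h1.1 hT (IsSylowTwoIn.not_dvd h1)
  have hzc : zc (S : Subgroup G) ≤ zc T := by
    intro x hx
    obtain ⟨hx1, hx2, hx3⟩ := mem_zc.1 hx
    have h4 : x ∈ centralizer (o2 L : Set G) := by
      rw [mem_centralizer_iff]
      exact fun y hy => hx2 y (hS (hQT hy))
    exact mem_zc.2 ⟨hQT (h3 h4), fun b hb => hx2 b (hS hb), hx3⟩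
  have h4 : centralizer (zc T : Set G) ≤ normalizer ((S : Subgroup G) : Set G) :=
    (centralizer_le hzc).trans (hZ S)
  have h5 : L ⊓ (S : Subgroup G) = T := inf_eq_of_isSylowTwoIn h1 hS S.2
  calc L ⊓ centralizer (zc T : Set G) ≤
        normalizer (L : Set G) ⊓ normalizer ((S : Subgroup G) : Set G) :=
      inf_le_inf Subgroup.le_normalizer h4
    _ ≤ normalizer ((L ⊓ (S : Subgroup G) : Subgroup G) : Set G) :=
      inf_normalizer_le_normalizer_inf
    _ = normalizer (T : Set G) := by rw [h5]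

/-- The hypotheses of the statements S2942--S2951 on the group `G`. -/
structure ZNHyp (G : Type u) [Group G] : Prop where
  char2 : IsCharacteristicTwoType G
  solv : ∀ N : Subgroup G, Cfsg.IsTwoLocal N → Group.IsSolvable ↥N
  cent : ∀ S : Sylow 2 G, centralizer (omegaCenterOf (S : Subgroup G) : Set G) ≤
      normalizer ((S : Subgroup G) : Set G)

/-- The data of the structure theorem for a member of `jOvergroups T`. -/
theorem over_ff (hG : ZNHyp G) (hT : IsPGroup 2 T) (hL : L ∈ jOvergroups T) :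
    ∃ (n : ℕ) (V : Fin n → Subgroup ↥L), FF (T.subgroupOf L) (omegaJoin 2 ↥L) V := by
  obtain ⟨h1, h2, h3⟩ := mem_jOvergroups_iff.1 hL
  have hmap : (T.subgroupOf L).map L.subtype = T := by
    rw [subgroupOf_map_subtype, inf_eq_left]; exact h1.1
  have hf := L.subtype_injective
  have hcent : centralizer (zc (T.subgroupOf L) : Set ↥L) ≤
      normalizer ((T.subgroupOf L : Subgroup ↥L) : Set ↥L) := by
    rw [← le_normalizer_map_iff L.subtype hf, hmap]
    refine le_trans ?_ (over_centralizer hG.cent hT hL)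
    refine le_inf (map_subtype_le _) ?_
    have hz : zc T = (zc (T.subgroupOf L)).map L.subtype := by
      rw [← zc_map L.subtype hf, hmap]
    rw [hz]
    rintro _ ⟨x, hx, rfl⟩
    rw [mem_centralizer_iff]
    rintro _ ⟨z, hz, rfl⟩
    exact congrArg Subtype.val ((mem_centralizer_iff.1 hx) z hz)
  have hJ' : ¬ (⊤ : Subgroup ↥L) ≤ normalizer (jj (T.subgroupOf L) : Set ↥L) := by
    intro h
    rw [← le_normalizer_map_iff L.subtype hf, ← jj_map L.subtype hf, hmap,
      ← MonoidHom.range_eq_map, range_subtype] at h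
    exact h2 (le_o2 ((jj_le T).trans h1.1) (hT.to_le (jj_le T)) h)
  exact exists_ff (T.subgroupOf L) (over_solvable hG.char2.1 hG.solv hL) (over_pCore hL)
    (hT.comap_of_injective L.subtype hf) (IsSylowTwoIn.not_dvd h1) hcent hJ'

theorem over_jc (hL : L ∈ jOvergroups T) (h : JC (jj T) K) (hKL : K ≤ L) :
    JC (jj (T.subgroupOf L)) (K.subgroupOf L) := by
  obtain ⟨h1, -, -⟩ := mem_jOvergroups_iff.1 hL
  refine JC.of_map L.subtype L.subtype_injective ?_
  rw [← jj_map L.subtype L.subtype_injective, subgroupOf_map_subtype, subgroupOf_map_subtype,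
    inf_eq_left.2 h1.1, inf_eq_left.2 hKL]
  exact h

/-- **S2942.** -/
theorem over_isSubnormal (hG : ZNHyp G) (hT : IsPGroup 2 T) (hL : L ∈ jOvergroups T)
    (h : JC (jj T) K) (hKL : K ≤ L) : (K.subgroupOf L).IsSubnormal := by
  obtain ⟨n, V, hF⟩ := over_ff hG hT hL
  exact ff_isSubnormal hF (over_jc hL h hKL)

/-- `N_L(W_K) ≤ N_L(K)`. -/
theorem over_normalizer_wOf (hG : ZNHyp G) (hT : IsPGroup 2 T) (hL : L ∈ jOvergroups T)
    (h : JC (jj T) K) (hKL : K ≤ L) :
    L ⊓ normalizer (wOf K : Set G) ≤ normalizer (K : Set G) := by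
  obtain ⟨n, V, hF⟩ := over_ff hG hT hL
  have h1 := ff_normalizer_wOf hF (over_jc hL h hKL)
  have hK : (K.subgroupOf L).map L.subtype = K := by
    rw [subgroupOf_map_subtype, inf_eq_left.2 hKL]
  have hf := L.subtype_injective
  have h2 : L ⊓ normalizer (wOf K : Set G) =
      (⊤ ⊓ normalizer (wOf (K.subgroupOf L) : Set ↥L)).map L.subtype := by
    rw [← normalizer_map_inf L.subtype hf, ← wOf_map L.subtype hf, hK, ← MonoidHom.range_eq_map,
      range_subtype]
  rw [h2, top_inf_eq]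
  have h3 := (le_normalizer_map_iff L.subtype hf _ _).2 h1
  rw [hK] at h3
  exact h3

/-- **S2943.** -/
theorem over_le_normalizer (hG : ZNHyp G) (hT : IsPGroup 2 T) (hL : L ∈ jOvergroups T)
    (h : JC (jj T) K) (hKL : K ≤ L) (hZW : T ⊓ centralizer (T : Set G) ⊓ wOf K ≠ ⊥) :
    T ≤ normalizer (K : Set G) := by
  obtain ⟨n, V, hF⟩ := over_ff hG hT hL
  obtain ⟨h1, -, -⟩ := mem_jOvergroups_iff.1 hL
  have hf := L.subtype_injective
  have hK : (K.subgroupOf L).map L.subtype = K := by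
    rw [subgroupOf_map_subtype, inf_eq_left.2 hKL]
  have hT' : (T.subgroupOf L).map L.subtype = T := by
    rw [subgroupOf_map_subtype, inf_eq_left.2 h1.1]
  have h2 := ff_le_normalizer hF (over_jc hL h hKL) (by
    intro hb
    apply hZW
    have h3 : (T.subgroupOf L ⊓ centralizer (T.subgroupOf L : Set ↥L) ⊓
        wOf (K.subgroupOf L)).map L.subtype = T ⊓ centralizer (T : Set G) ⊓ wOf K := by
      rw [Subgroup.map_inf _ _ _ hf, ← centralizer_map_inf L.subtype hf, ← wOf_map L.subtype hf,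
        hK, hT']
    rw [← h3, hb, Subgroup.map_bot])
  have h3 := (le_normalizer_map_iff L.subtype hf _ _).2 h2
  rwa [hK, hT'] at h3

/-! ### the family `𝒦₀(T)` -/

theorem not_le_o2 {J : Subgroup G} (h : JC J K) (hKL : K ≤ L) : ¬ J ≤ o2 L := by
  intro hJ
  have h1 : K ≤ o2 L := by
    refine h.comm.ge.trans ((commutator_mono le_rfl hJ).trans ?_)
    rw [← le_normalizer_iff_commutator_le_right]
    exact hKL.trans (le_normalizer_o2 L)
  have h2 := h.two_le le_rfl ((isPGroup_o2 L).to_le h1)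
  have h3 := h.idx
  rw [relIndex_eq_one.2 h2] at h3
  omega

/-- A 2-local subgroup `N(U)` of a group of characteristic 2 type. -/
theorem centralizer_o2_le (hG : IsCharacteristicTwoType G) {U : Subgroup G} (hU : IsPGroup 2 U)
    (hU1 : U ≠ ⊥) :
    centralizer (o2 (normalizer (U : Set G)) : Set G) ≤ o2 (normalizer (U : Set G)) := by
  have h1 : U ≤ o2 (normalizer (U : Set G)) := le_o2 Subgroup.le_normalizer hU le_rfl
  intro x hx
  have h2 : x ∈ normalizer (U : Set G) :=
    (centralizer_le_normalizer _) (centralizer_le h1 hx)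
  have h3 := hG.2 U hU hU1
  refine ⟨⟨x, h2⟩, h3 (mem_centralizer_iff.2 fun y hy => Subtype.ext ?_), rfl⟩
  exact mem_centralizer_iff.1 hx y ⟨y, hy, rfl⟩

theorem jZero_iff : K ∈ jComponentsZero T ↔ JC (jj T) K ∧
    ∀ S : Subgroup G, jj T ≤ S → IsSylowTwoIn S (normalizer (wOf K : Set G)) → jj S = jj T := by
  unfold jComponentsZero
  rw [Set.mem_setOf_eq, isJComponent_iff]

/-- For `K ∈ 𝒦₀(T)`, the group `N(W_K)` lies in `jOvergroups S` for the Sylow 2-subgroups `S` of
`N(W_K)` containing `J(T)`. -/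
theorem zero_mem_jOvergroups (hG : IsCharacteristicTwoType G) (hK : K ∈ jComponentsZero T)
    {S : Subgroup G} (hJS : jj T ≤ S) (hS : IsSylowTwoIn S (normalizer (wOf K : Set G))) :
    normalizer (wOf K : Set G) ∈ jOvergroups S := by
  obtain ⟨h, hK0⟩ := jZero_iff.1 hK
  refine mem_jOvergroups_iff.2 ⟨hS, ?_, centralizer_o2_le hG h.isPGroup_wOf h.wOf_ne_bot⟩
  rw [hK0 S hJS hS]
  exact not_le_o2 h (le_normalizer_wOf K)

/-- **S2944, first part.** -/
theorem zero_normalizer (hG : ZNHyp G) (hT : IsPGroup 2 T) (hK : K ∈ jComponentsZero T) :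
    normalizer (K : Set G) = normalizer (wOf K : Set G) := by
  obtain ⟨h, hK0⟩ := jZero_iff.1 hK
  apply le_antisymm (normalizer_le_normalizer_wOf K)
  obtain ⟨S, hS, hJS⟩ := exists_isSylowTwoIn (hT.to_le (jj_le T)) h.le_normalizer_wOf
  have h1 := zero_mem_jOvergroups hG.char2 hK hJS hS
  have h2 : JC (jj S) K := by rw [hK0 S hJS hS]; exact h
  have h3 := over_normalizer_wOf hG hS.2.1 h1 h2 (le_normalizer_wOf K)
  rwa [inf_idem] at h3

/-- A conjugate `P` of `J(S₁)` with `P ≤ S₁` equals `J(S₁)`. -/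
theorem jj_unique {P S₁ : Subgroup G} (hPS : P ≤ S₁) (x : G)
    (hx : (jj S₁).map (MulAut.conj x).toMonoidHom = P) : jj S₁ = P := by
  obtain ⟨A₁, hA₁⟩ := exists_isMaxIn S₁
  have h1 : ∀ A, IsMaxIn S₁ A → A.map (MulAut.conj x).toMonoidHom ≤ jj S₁ := by
    intro A hA
    have h2 : A.map (MulAut.conj x).toMonoidHom ≤ P := by
      rw [← hx]; exact Subgroup.map_mono hA.le_jj
    refine IsMaxIn.le_jj ⟨h2.trans hPS, isElementaryAbelian_map hA.2.1 _, fun B hB hB2 => ?_⟩
    rw [card_map_injective _ (MulAut.conj x).injective]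
    exact hA.2.2 B hB hB2
  have h3 : P ≤ jj S₁ := by
    rw [← hx, map_le_iff_le_comap]
    refine jj_le_of_forall fun A hA => ?_
    rw [← map_le_iff_le_comap]
    exact h1 A hA
  refine (Subgroup.eq_of_le_of_card_ge h3 ?_).symm
  rw [← hx, card_map_injective _ (MulAut.conj x).injective]

/-- **S2944, second part.** -/
theorem zero_conj (hG : ZNHyp G) (hT : IsPGroup 2 T) (hK : K ∈ jComponentsZero T) (g : G)
    (hg : jj (T.map (MulAut.conj g).toMonoidHom) ≤ normalizer (wOf K : Set G)) :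
    JC (jj (T.map (MulAut.conj g).toMonoidHom)) K := by
  obtain ⟨h, hK0⟩ := jZero_iff.1 hK
  have hN := zero_normalizer hG hT hK
  rw [jj_map _ (MulAut.conj g).injective] at hg ⊢
  obtain ⟨S, hS, hJS⟩ := exists_isSylowTwoIn (hT.to_le (jj_le T)) h.le_normalizer_wOf
  have hjS := hK0 S hJS hS
  obtain ⟨S₁, hS₁, hPS₁⟩ := exists_isSylowTwoIn ((hT.to_le (jj_le T)).map _) hg
  obtain ⟨l, hl, hlS⟩ := isSylowTwoIn_conj hS hS₁
  have h1 : jj S₁ = (jj T).map (MulAut.conj l).toMonoidHom := by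
    rw [← hlS, jj_map _ (MulAut.conj l).injective, hjS]
  have h2 : jj S₁ = (jj T).map (MulAut.conj g).toMonoidHom := by
    refine jj_unique hPS₁ (g * l⁻¹) ?_
    rw [h1, Subgroup.map_map]
    congr 1
    ext x
    simp [mul_assoc]
  rw [← h2, h1]
  have h3 := JC.map_hom (MulAut.conj l).toMonoidHom (MulAut.conj l).injective h
  have h4 : K.map (MulAut.conj l).toMonoidHom = K := by
    rw [← hN] at hl
    exact map_conj_eq_of_mem_normalizer hl
  rwa [h4] at h3

end Over

end Cfsg.Agent.H250.JBasic
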