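import Cfsg.Agent.H250.JSplit
import Cfsg.Agent.ZN.FFData
import Cfsg.Agent.ZN.MaxQ
import Cfsg.Agent.ZN.OddKernel
import Cfsg.Agent.ZN.Facts

/-!
# J(T)-components in a group `Γ` with Sylow 2-subgroup `T`, `J(T) ≰ O₂(Γ)`, `C(O₂(Γ)) ≤ O₂(Γ)`

The data `FF T W V` come from the structure theorem S0617: `W = ⟨Ω₁(Z(T))^Γ⟩`, `J = J(Γ)` normalizes the
four-groups `V i`.
-/

set_option autoImplicit false
set_option linter.style.haveILetI false
set_option linter.unusedSectionVars false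

namespace Cfsg.Agent.H250.JBasic

open Subgroup Cfsg
open Cfsg.Agent.ZN
open Cfsg.Agent.PLocal.ThompsonJ
open Cfsg.Agent.PLocal.FFCoprime (omegaJoin)

universe u

/-- The data `FF` for a solvable group of characteristic 2. -/
theorem exists_ff {K : Type u} [Group K] [Finite K] (T : Subgroup K)
    (hs : Group.IsSolvable K) (hc : centralizer (pCore 2 K : Set K) ≤ pCore 2 K)
    (hT : IsPGroup 2 T) (hTi : ¬ 2 ∣ T.index)
    (hZ : centralizer (zc T : Set K) ≤ normalizer (T : Set K))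
    (hJ : ¬ ⊤ ≤ normalizer (jj T : Set K)) :
    ∃ (n : ℕ) (V : Fin n → Subgroup K), FF T (omegaJoin 2 K) V := by
  obtain ⟨cT, hC⟩ := FFBasic.inf_centralizer_eq hT hTi hZ
  obtain ⟨n, V, h1⟩ := FFData.exists_ff1 hs hc T hT hTi cT
    (FFBasic.not_le_centralizer hT hTi hZ hJ)
  have hWn := h1.Wn
  have hmax := MaxQ.exists_max hT hTi h1.Wn h1.Wcomm h1.Wsq cT h1.card h1.indep h1.sup h1.nrm
  exact ⟨n, V, {
    two := hT
    sylow := hTi
    nonempty := h1.nonempty
    Wn := h1.Wn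
    Wcomm := h1.Wcomm
    Wsq := h1.Wsq
    cQ := hc
    WQ := h1.WQ
    Wcent := h1.Wcent
    cT := cT
    cJ := OddKernel.le hT hTi h1.Wn hC cT h1.card h1.indep h1.sup h1.nrm h1.d h1.t
    card := h1.card
    indep := h1.indep
    sup := h1.sup
    perm := h1.perm
    nrm := h1.nrm
    d := h1.d
    t := h1.t
    comm_le := MaxQ.comm_le hs hT hTi h1.Wcomm h1.Wsq h1.hO cT hmax
    maxQ := hmax }⟩

section

variable {Γ : Type u} [Group Γ] [Finite Γ] {T W : Subgroup Γ} {n : ℕ} {V : Fin n → Subgroup Γ}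
  {K : Subgroup Γ}

theorem ff_VW (hF : FF T W V) (i : Fin n) : V i ≤ W := by
  rw [← hF.sup]; exact (le_iSup V i).trans le_sup_right

theorem ff_Vsq (hF : FF T W V) (i : Fin n) : ∀ v ∈ V i, v ^ 2 = 1 := fun v hv =>
  hF.Wsq v (ff_VW hF i hv)

theorem ff_jj_le (hF : FF T W V) : jj T ≤ thompsonSubgroup 2 Γ := by
  obtain ⟨S, hS⟩ := FFBasic.exists_sylow hF.two hF.sylow
  rw [← hS, jj, thompsonSubgroupOf_sylow_eq S]
  exact sSup_le fun A hA => le_thompsonSubgroup hA.1

theorem ff_J_normal (hF : FF T W V) : (thompsonSubgroup 2 Γ).Normal := by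
  have _ := hF
  haveI := thompsonSubgroup_characteristic 2 Γ
  infer_instance

theorem ff_K_le (hF : FF T W V) (h : JC (jj T) K) : K ≤ thompsonSubgroup 2 Γ := by
  refine h.comm.ge.trans ((commutator_mono le_rfl (ff_jj_le hF)).trans ?_)
  haveI := ff_J_normal hF
  exact commutator_le_right _ _

/-- An element of `J(Γ)` centralizing all planes centralizes `W`. -/
theorem ff_mem_centralizer (hF : FF T W V) {x : Γ} (hx : x ∈ thompsonSubgroup 2 Γ)
    (h : ∀ i, x ∈ centralizer (V i : Set Γ)) : x ∈ centralizer (W : Set Γ) := by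
  have h1 : W ≤ centralizer ({x} : Set Γ) := by
    rw [← hF.sup]
    refine sup_le (fun w hw => ?_) (iSup_le fun i v hv => ?_)
    · rw [mem_centralizer_singleton_iff]
      exact (mem_centralizer_iff.1 (mem_inf.1 hw).2 x hx).symm
    · rw [mem_centralizer_singleton_iff]
      exact mem_centralizer_iff.1 (h i) v hv
  rw [mem_centralizer_iff]
  intro w hw
  exact mem_centralizer_singleton_iff.1 (h1 hw)

end

/-! ### more on `JC` -/

section

variable {G : Type u} [Group G] [Finite G] {J K : Subgroup G}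

/-- Elements of odd order of `K` satisfy `d ^ 3 = 1`. -/
theorem JC.pow_three_eq_one (h : JC J K) {d : G} (hd : d ∈ K) (hdo : Odd (orderOf d)) :
    d ^ 3 = 1 := by
  obtain ⟨n, hn⟩ := isPGroup_o2 K ⟨_, h.pow_three hd⟩
  have hn' : (d ^ 3) ^ (2 ^ n) = 1 := congrArg Subtype.val hn
  have h1 : Odd (orderOf (d ^ 3)) := hdo.of_dvd_nat (orderOf_pow_dvd 3)
  have h2 : orderOf (d ^ 3) ∣ 2 ^ n := orderOf_dvd_of_pow_eq_one hn'
  have h3 : Nat.Coprime (orderOf (d ^ 3)) (2 ^ n) := Nat.Coprime.pow_right _ h1.coprime_two_right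
  have h4 : orderOf (d ^ 3) = 1 := Nat.eq_one_of_dvd_coprimes h3 dvd_rfl h2
  exact orderOf_eq_one_iff.1 h4

/-- If `K` normalizes a four-group `P` and does not centralize it, then `O₂(K)` centralizes `P`
and the elements outside `O₂(K)` do not. -/
theorem JC.plane (h : JC J K) {P : Subgroup G} (hP : Nat.card P = 4) (hsq : ∀ v ∈ P, v ^ 2 = 1)
    (hKP : K ≤ normalizer (P : Set G)) (hne : ¬ K ≤ centralizer (P : Set G)) :
    o2 K ≤ centralizer (P : Set G) ∧ (∀ d ∈ K, d ∉ o2 K → d ∉ centralizer (P : Set G)) ∧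
      ∀ U : Subgroup G, K ≤ normalizer (U : Set G) → ∀ v ∈ P, v ≠ 1 → v ∈ U → P ≤ U := by
  -- an element of odd order not centralizing `P`
  have h1 : ∃ d ∈ K, Odd (orderOf d) ∧ d ∉ centralizer (P : Set G) := by
    by_contra hcon
    push Not at hcon
    apply hne
    rw [← h.odd]
    exact oddGen_le_iff.2 hcon
  obtain ⟨d, hd, hdo, hdP⟩ := h1
  have hd3 : d ^ 3 ∈ centralizer (P : Set G) := by
    rw [h.pow_three_eq_one hd hdo]; exact one_mem _
  have h3 : ∀ U : Subgroup G, K ≤ normalizer (U : Set G) → ∀ v ∈ P, v ≠ 1 → v ∈ U → P ≤ U := by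
    intro U hU v hv hv1 hvU x hx
    by_cases hx1 : x = 1
    · rw [hx1]; exact one_mem _
    rcases Four.cyc_trans hP hsq (hKP hd) hdP hd3 hv hv1 hx hx1 with rfl | rfl | rfl
    · exact hvU
    · exact Four.conj_mem (hU hd) hvU
    · exact Four.conj_mem' (hU hd) hvU
  have hP2 : IsPGroup 2 P := IsPGroup.of_card (n := 2) (by rw [hP]; norm_num)
  have hP1 : P ≠ ⊥ := by
    intro hb
    rw [hb, Subgroup.card_bot] at hP
    omega
  have h2 : o2 K ≤ centralizer (P : Set G) := by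
    obtain ⟨w, hw, hw1, hfix⟩ := exists_fixed hP2 hP1 (isPGroup_o2 K) ((o2_le K).trans hKP)
    rw [le_centralizer_iff]
    refine h3 _ ((le_normalizer_o2 K).trans (normalizer_le_normalizer_centralizer _)) w hw hw1 ?_
    rw [mem_centralizer_iff]
    intro r hr
    exact Four.conj_eq_iff_comm.1 (hfix r hr)
  refine ⟨h2, fun e he he2 hc => ?_, h3⟩
  apply hne
  rw [← h.sup_zpowers he he2]
  exact sup_le h2 (zpowers_le.2 hc)

end

section

variable {Γ : Type u} [Group Γ] [Finite Γ] {T W : Subgroup Γ} {n : ℕ} {V : Fin n → Subgroup Γ}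
  {K : Subgroup Γ}

/-- `O₂(K)` centralizes `W`, hence lies in `O₂(Γ)`. -/
theorem ff_o2_le (hF : FF T W V) (h : JC (jj T) K) :
    o2 K ≤ centralizer (W : Set Γ) ∧ o2 K ≤ pCore 2 Γ := by
  have hKJ := ff_K_le hF h
  have h1 : o2 K ≤ centralizer (W : Set Γ) := by
    intro x hx
    refine ff_mem_centralizer hF (hKJ (o2_le K hx)) fun i => ?_
    by_cases hc : K ≤ centralizer (V i : Set Γ)
    · exact hc (o2_le K hx)
    · exact (h.plane (hF.card i) (ff_Vsq hF i) (hKJ.trans (hF.nrm i)) hc).1 hx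
  exact ⟨h1, (le_inf ((o2_le K).trans hKJ) h1).trans hF.cJ⟩

theorem ff_inf_centralizer (hF : FF T W V) (h : JC (jj T) K) :
    K ⊓ centralizer (W : Set Γ) = o2 K := by
  apply le_antisymm
  · refine h.two_le inf_le_left ?_
    refine (Lib.Cores.pCore_isPGroup (G := Γ) 2).to_le (le_trans ?_ hF.cJ)
    exact inf_le_inf_right _ (ff_K_le hF h)
  · exact le_inf (o2_le K) (ff_o2_le hF h).1

/-- `K` moves some plane. -/
theorem ff_exists (hF : FF T W V) (h : JC (jj T) K) : ∃ i, ¬ K ≤ centralizer (V i : Set Γ) := by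
  by_contra hcon
  push Not at hcon
  have h1 : K ≤ centralizer (W : Set Γ) := fun x hx =>
    ff_mem_centralizer hF (ff_K_le hF h hx) fun i => hcon i hx
  have h2 := ff_inf_centralizer hF h
  rw [inf_eq_left.2 h1] at h2
  have h3 := h.idx
  rw [relIndex_eq_one.2 h2.le] at h3
  omega

/-- `K` moves only one plane. -/
theorem ff_unique (hF : FF T W V) (h : JC (jj T) K) {i j : Fin n} (hij : i ≠ j)
    (hi : ¬ K ≤ centralizer (V i : Set Γ)) : K ≤ centralizer (V j : Set Γ) := by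
  by_contra hj
  have hKJ := ff_K_le hF h
  obtain ⟨hi1, hi2, hi3⟩ := h.plane (hF.card i) (ff_Vsq hF i) (hKJ.trans (hF.nrm i)) hi
  obtain ⟨hj1, hj2, hj3⟩ := h.plane (hF.card j) (ff_Vsq hF j) (hKJ.trans (hF.nrm j)) hj
  obtain ⟨t, ht, ⟨v, hv, htv⟩, ht2⟩ := hF.t i
  have htJ : t ∈ thompsonSubgroup 2 Γ := ff_jj_le hF ht
  have htV : t ∈ normalizer (V i : Set Γ) := hF.nrm i htJ
  have htc : t ∉ centralizer (V i : Set Γ) := fun hc => htv (Four.mem_cent_iff.1 hc v hv)
  -- a fixed point of `t`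
  have hV2 : IsPGroup 2 (V i) := IsPGroup.of_card (n := 2) (by rw [hF.card i]; norm_num)
  have hV1 : V i ≠ ⊥ := by
    intro hb
    have := hF.card i
    rw [hb, Subgroup.card_bot] at this
    omega
  have htp : IsPGroup 2 (zpowers t) :=
    hF.two.to_le ((zpowers_le.2 ht).trans (jj_le T))
  obtain ⟨x, hx, hx1, hfix⟩ := exists_fixed hV2 hV1 htp (zpowers_le.2 htV)
  have htx := hfix t (mem_zpowers t)
  obtain ⟨d, hd, hdo, hd2⟩ := h.exists_d
  have hdV : d ∈ normalizer (V i : Set Γ) := hF.nrm i (hKJ hd)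
  have hdx : d * x * d⁻¹ ≠ x := by
    refine Four.cyc_ne (hF.card i) (ff_Vsq hF i) hdV (hi2 d hd hd2) ?_ hx hx1
    rw [h.pow_three_eq_one hd hdo]; exact one_mem _
  have hmov := Four.comm_moves (hF.card i) (ff_Vsq hF i) hx hx1 hdV hdx htx htc
  set c := t * d * t⁻¹ * d⁻¹ with hc
  have hcK : c ∈ K := mul_mem (Four.conj_mem (h.le_normalizer ht) hd) (inv_mem hd)
  -- `c` centralizes `V j`
  have hcj : c ∈ centralizer (V j : Set Γ) := by
    rw [Four.mem_cent_iff]
    have htj : ∀ v ∈ V j, t * v * t⁻¹ = v := fun v hv =>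
      Four.conj_eq_iff_comm.2 (ht2 j hij.symm v hv)
    have htj' : ∀ v ∈ V j, t⁻¹ * v * t = v := fun v hv => by
      calc t⁻¹ * v * t = t⁻¹ * (t * v * t⁻¹) * t := by rw [htj v hv]
        _ = v := by group
    intro v hv
    have hdVj : d ∈ normalizer (V j : Set Γ) := hF.nrm j (hKJ hd)
    have h1 : d⁻¹ * v * d ∈ V j := Four.conj_mem' hdVj hv
    calc c * v * c⁻¹ = t * (d * (t⁻¹ * (d⁻¹ * v * d) * t) * d⁻¹) * t⁻¹ := by rw [hc]; group
      _ = t * (d * (d⁻¹ * v * d) * d⁻¹) * t⁻¹ := by rw [htj' _ h1]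
      _ = t * v * t⁻¹ := by group
      _ = v := htj v hv
  have hc2 : c ∈ o2 K := by
    by_contra hc2
    exact hj2 c hcK hc2 hcj
  exact hmov (Four.mem_cent_iff.1 (hi1 hc2) x hx)

/-- `O₂(Γ)` normalizes `K`. -/
theorem ff_pCore_le (hF : FF T W V) (h : JC (jj T) K) :
    pCore 2 Γ ≤ normalizer (K : Set Γ) := by
  haveI : (pCore 2 Γ).Normal := Lib.Cores.pCore_normal 2
  have h1 : (⊤ : Subgroup Γ) ≤ normalizer (pCore 2 Γ : Set Γ) :=
    (normalizer_eq_top_iff.2 inferInstance).ge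
  refine le_normalizer_of_oddGen (hF.two.to_le (jj_le T)) h.odd h.comm (le_top.trans h1)
    (le_top.trans h1) ?_
  have h2 : pCore 2 Γ ≤ T := by rw [← hF.cT]; exact inf_le_left
  exact h2.trans (le_normalizer_jj T)

/-- `W_K` is the plane moved by `K`. -/
theorem ff_wOf_eq (hF : FF T W V) (h : JC (jj T) K) {i : Fin n}
    (hi : ¬ K ≤ centralizer (V i : Set Γ)) : wOf K = V i := by
  have hKJ := ff_K_le hF h
  have hKV := hKJ.trans (hF.nrm i)
  obtain ⟨hi1, hi2, hi3⟩ := h.plane (hF.card i) (ff_Vsq hF i) hKV hi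
  have hVQ : V i ≤ pCore 2 Γ := (ff_VW hF i).trans hF.WQ
  obtain ⟨d, hd, hdo, hd2⟩ := h.exists_d
  obtain ⟨v, hv, hv1, -⟩ := Four.exists_other (hF.card i) (1 : Γ)
  have hdv : d * v * d⁻¹ ≠ v := by
    refine Four.cyc_ne (hF.card i) (ff_Vsq hF i) (hKV hd) (hi2 d hd hd2) ?_ hv hv1
    rw [h.pow_three_eq_one hd hdo]; exact one_mem _
  set c := v * d * v⁻¹ * d⁻¹ with hc
  have hcV : c ∈ V i := by
    have h1 : c = v * (d * v * d⁻¹)⁻¹ := by rw [hc]; group
    rw [h1]
    exact mul_mem hv (inv_mem (Four.conj_mem (hKV hd) hv))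
  have hc1 : c ≠ 1 := by
    intro h1
    apply hdv
    have h2 : v * (d * v * d⁻¹)⁻¹ = 1 := by rw [← h1, hc]; group
    exact (mul_inv_eq_one.1 h2).symm
  have hcK : c ∈ K := by
    have h1 : v * d * v⁻¹ ∈ K := Four.conj_mem (ff_pCore_le hF h (hVQ hv)) hd
    exact mul_mem h1 (inv_mem hd)
  have hVK : V i ≤ K := hi3 K Subgroup.le_normalizer c hcV hc1 hcK
  have hV2 : IsPGroup 2 (V i) := IsPGroup.of_card (n := 2) (by rw [hF.card i]; norm_num)
  have hVo : V i ≤ o2 K := h.two_le hVK hV2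
  have hVz : V i ≤ zc (o2 K) := by
    intro x hx
    refine mem_zc.2 ⟨hVo hx, fun b hb => ?_, ff_Vsq hF i x hx⟩
    exact (mem_centralizer_iff.1 ((ff_o2_le hF h).1 hb) x (ff_VW hF i hx)).symm
  have hcW : c ∈ wOf K := by
    rw [wOf_def]
    exact commutator_mem_commutator (hVz hv) hd
  apply le_antisymm
  · exact h.wOf_le_of_mem hKV hcW hc1 hcV
  · exact hi3 _ (JBasic.le_normalizer_wOf K) c hcV hc1 hcW

/-- The subgroup of `J(Γ)` centralizing all planes except `V i`. -/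
def dd (V : Fin n → Subgroup Γ) (i : Fin n) : Subgroup Γ :=
  thompsonSubgroup 2 Γ ⊓ ⨅ j : {j : Fin n // j ≠ i}, centralizer (V j : Set Γ)

theorem ff_K_le_dd (hF : FF T W V) (h : JC (jj T) K) {i : Fin n}
    (hi : ¬ K ≤ centralizer (V i : Set Γ)) : K ≤ dd V i :=
  le_inf (ff_K_le hF h) (le_iInf fun j => ff_unique hF h j.2.symm hi)

theorem ff_dd_inf (hF : FF T W V) (i : Fin n) :
    dd V i ⊓ centralizer (V i : Set Γ) = thompsonSubgroup 2 Γ ⊓ centralizer (W : Set Γ) := by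
  apply le_antisymm
  · rintro x ⟨⟨hx1, hx2⟩, hx3⟩
    refine ⟨hx1, ff_mem_centralizer hF hx1 fun j => ?_⟩
    by_cases hj : j = i
    · rw [hj]; exact hx3
    · exact mem_iInf.1 hx2 ⟨j, hj⟩
  · refine le_inf (le_inf inf_le_left (le_iInf fun j => ?_)) ?_
    · exact inf_le_right.trans (centralizer_le (ff_VW hF _))
    · exact inf_le_right.trans (centralizer_le (ff_VW hF _))

/-- `K` is generated by the elements of odd order of `dd V i`. -/
theorem ff_oddGen_dd (hF : FF T W V) (h : JC (jj T) K) {i : Fin n}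
    (hi : ¬ K ≤ centralizer (V i : Set Γ)) : oddGen (dd V i) = K := by
  have hKD := ff_K_le_dd hF h hi
  have hKJ := ff_K_le hF h
  have hJn := ff_J_normal hF
  have hWn := hF.Wn
  set C := thompsonSubgroup 2 Γ ⊓ centralizer (W : Set Γ) with hC
  have hCn : C.Normal := by
    have : (centralizer (W : Set Γ)).Normal := inferInstance
    exact Subgroup.normal_inf_normal _ _
  have hC2 : IsPGroup 2 C := (Lib.Cores.pCore_isPGroup (G := Γ) 2).to_le hF.cJ
  have hCD : C ≤ dd V i := by rw [hC, ← ff_dd_inf hF i]; exact inf_le_left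
  have hCK : C ≤ normalizer (K : Set Γ) := hF.cJ.trans (ff_pCore_le hF h)
  -- `|dd V i : C|` divides 6
  have h1 : C.relIndex (dd V i) ∣ 6 := by
    rw [hC, ← ff_dd_inf hF i, inf_relIndex_left]
    exact Plane.relIndex_dvd_six (hF.card i) (inf_le_left.trans (hF.nrm i))
  -- `|KC : C| = 3`
  have h2 : C.relIndex (K ⊔ C) = 3 := by
    have h3 : C.relIndex (K ⊔ C) = C.relIndex K := relIndex_sup_right K C
    have h4 : K ⊓ C = o2 K := by
      rw [hC, ← inf_assoc, inf_eq_left.2 hKJ, ff_inf_centralizer hF h]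
    rw [h3, ← inf_relIndex_left, h4, h.idx]
  have h3 := relIndex_mul_relIndex C (K ⊔ C) (dd V i) le_sup_right (sup_le hKD hCD)
  rw [h2] at h3
  have h4 : (K ⊔ C).relIndex (dd V i) ∣ 2 := by
    have h5 : 3 * (K ⊔ C).relIndex (dd V i) ∣ 3 * 2 := by rw [h3]; exact h1
    exact Nat.dvd_of_mul_dvd_mul_left (by norm_num) h5
  -- hence `KC` is normal in `dd V i`
  have h5 : ((K ⊔ C).subgroupOf (dd V i)).Normal := by
    rcases (Nat.dvd_prime Nat.prime_two).1 h4 with h6 | h6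
    · have h7 : (K ⊔ C).subgroupOf (dd V i) = ⊤ := index_eq_one.1 h6
      rw [h7]; infer_instance
    · exact normal_of_index_eq_two h6
  apply le_antisymm
  · rw [oddGen_le_iff]
    intro g hg ho
    have h6 : g ∈ K ⊔ C := mem_of_isSubnormal_rel h5.isSubnormal (n := 1) (by simpa using h4) hg ho
    have h7 : g ∈ oddGen (K ⊔ C) := mem_oddGen h6 ho
    rw [oddGen_sup hCK hC2, h.odd] at h7
    exact h7
  · calc K = oddGen K := h.odd.symm
      _ ≤ _ := oddGen_mono hKD

/-- **S2942, in the group `Γ`.** -/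
theorem ff_isSubnormal (hF : FF T W V) (h : JC (jj T) K) : K.IsSubnormal := by
  obtain ⟨i, hi⟩ := ff_exists hF h
  have hKD := ff_K_le_dd hF h hi
  have hodd := ff_oddGen_dd hF h hi
  have hJn := ff_J_normal hF
  refine IsSubnormal.step K (dd V i) hKD ?_ ?_
  · have hle : dd V i ≤ thompsonSubgroup 2 Γ := inf_le_left
    refine IsSubnormal.step _ (thompsonSubgroup 2 Γ) hle hJn.isSubnormal ?_
    rw [normal_subgroupOf_iff_le_normalizer hle]
    have h1 : thompsonSubgroup 2 Γ ≤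
        normalizer ((⨅ j : {j : Fin n // j ≠ i}, centralizer (V j : Set Γ) : Subgroup Γ) : Set Γ) := by
      rw [le_normalizer_iff]
      intro g hg x hx
      rw [mem_iInf] at hx ⊢
      intro j
      exact Four.conj_mem (((hF.nrm j).trans (normalizer_le_normalizer_centralizer _)) hg) (hx j)
    exact (le_inf Subgroup.le_normalizer h1).trans inf_normalizer_le_normalizer_inf
  · rw [normal_subgroupOf_iff_le_normalizer hKD]
    calc dd V i ≤ normalizer (dd V i : Set Γ) := Subgroup.le_normalizer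
      _ ≤ normalizer (oddGen (dd V i) : Set Γ) := normalizer_le_normalizer_oddGen _
      _ = normalizer (K : Set Γ) := by rw [hodd]

theorem ff_V_ne_bot (hF : FF T W V) (i : Fin n) : V i ≠ ⊥ := by
  intro hb
  have := hF.card i
  rw [hb, Subgroup.card_bot] at this
  omega

/-- Two planes with a common nontrivial element are equal. -/
theorem ff_disjoint (hF : FF T W V) {i j : Fin n} (hij : i ≠ j) : Disjoint (V i) (V j) := by
  have h0 : (some i : Option (Fin n)) ≠ some j := fun h => hij (Option.some_injective _ h)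
  exact hF.indep.pairwiseDisjoint h0

/-- The normalizer of `W_K` normalizes `K`. -/
theorem ff_normalizer_wOf (hF : FF T W V) (h : JC (jj T) K) :
    normalizer (wOf K : Set Γ) ≤ normalizer (K : Set Γ) := by
  obtain ⟨i, hi⟩ := ff_exists hF h
  have hodd := ff_oddGen_dd hF h hi
  have hJn := ff_J_normal hF
  rw [ff_wOf_eq hF h hi]
  -- it suffices that `N(V i)` normalizes `dd V i`
  suffices h1 : normalizer (V i : Set Γ) ≤ normalizer (dd V i : Set Γ) by
    calc normalizer (V i : Set Γ) ≤ normalizer (dd V i : Set Γ) := h1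
      _ ≤ normalizer (oddGen (dd V i) : Set Γ) := normalizer_le_normalizer_oddGen _
      _ = normalizer (K : Set Γ) := by rw [hodd]
  rw [le_normalizer_iff]
  intro g hg x hx
  obtain ⟨hx1, hx2⟩ := mem_inf.1 hx
  refine mem_inf.2 ⟨hJn.conj_mem x hx1 g, mem_iInf.2 fun j => ?_⟩
  rw [mem_iInf] at hx2
  -- `g⁻¹ (V j) g = V k`
  obtain ⟨k, hk⟩ := hF.perm g⁻¹ j
  have hki : k ≠ i := by
    rintro rfl
    -- then `V j = g (V i) g⁻¹ = V i`
    have h2 : (V k).map (MulAut.conj g).toMonoidHom = V j := by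
      rw [← hk, Subgroup.map_map]
      ext y
      constructor
      · rintro ⟨z, hz, rfl⟩
        simpa [mul_assoc] using hz
      · intro hy
        exact ⟨y, hy, by simp [mul_assoc]⟩
    have h3 : (V k).map (MulAut.conj g).toMonoidHom = V k := map_conj_eq_of_mem_normalizer hg
    rw [h3] at h2
    have h4 := ff_disjoint hF (i := k) (j := j) (fun h5 => j.2 h5.symm)
    rw [h2, disjoint_self] at h4
    exact ff_V_ne_bot hF _ h4
  have h5 := hx2 ⟨k, hki⟩
  rw [mem_centralizer_iff] at h5 ⊢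
  intro v hv
  have h6 : g⁻¹ * v * g ∈ V k := by
    rw [← hk]
    exact ⟨v, hv, by simp⟩
  have h7 := h5 _ h6
  calc v * (g * x * g⁻¹) = g * ((g⁻¹ * v * g) * x) * g⁻¹ := by group
    _ = g * (x * (g⁻¹ * v * g)) * g⁻¹ := by rw [h7]
    _ = g * x * g⁻¹ * v := by group

/-- **S2943, in the group `Γ`.** -/
theorem ff_le_normalizer (hF : FF T W V) (h : JC (jj T) K)
    (hZW : T ⊓ centralizer (T : Set Γ) ⊓ wOf K ≠ ⊥) : T ≤ normalizer (K : Set Γ) := by
  obtain ⟨i, hi⟩ := ff_exists hF h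
  refine le_trans ?_ (ff_normalizer_wOf hF h)
  rw [ff_wOf_eq hF h hi] at hZW ⊢
  obtain ⟨z, hz, hz1⟩ := (Subgroup.ne_bot_iff_exists_ne_one).1 hZW |>.imp (fun z hz => hz) |> fun
    ⟨z, hz⟩ => (⟨z, z.2, fun h => hz (Subtype.ext h)⟩ : ∃ z : Γ, z ∈ _ ∧ z ≠ 1)
  obtain ⟨⟨hz2, hz3⟩, hz4⟩ := hz
  intro t ht
  obtain ⟨j, hj⟩ := hF.perm t i
  have h1 : z ∈ V j := by
    rw [← hj]
    refine ⟨z, hz4, ?_⟩
    change t * z * t⁻¹ = z
    rw [mem_centralizer_iff.1 hz3 t ht]; group
  have h2 : j = i := by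
    by_contra hne
    exact hz1 (disjoint_def.1 (ff_disjoint hF hne) h1 hz4)
  rw [h2] at hj
  exact mem_normalizer_of_map_conj_eq hj

end

end Cfsg.Agent.H250.JBasic
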