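import Cfsg.Agent.H250.JComp
import Cfsg.Agent.PLocal.ElemAbSup

/-!
# J(T)-components: `Ω₁(Z(J(T)))` and `W_K`
-/

set_option autoImplicit false
set_option linter.style.haveILetI false

namespace Cfsg.Agent.H250.JBasic

open Subgroup Cfsg
open Cfsg.Agent.ZN
open Cfsg.Agent.PLocal.ThompsonJ

universe u

variable {G : Type u} [Group G]

/-! ### counting with largest elementary abelian subgroups -/

theorem card_sup_mul_card_inf [Finite G] {A V : Subgroup G} (h : A ≤ normalizer (V : Set G)) :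
    Nat.card ↥(A ⊔ V) * Nat.card ↥(A ⊓ V) = Nat.card A * Nat.card V := by
  have h1 := card_mul_relIndex (le_sup_left : V ≤ V ⊔ A)
  rw [relIndex_sup h] at h1
  have h2 := card_mul_relIndex (inf_le_left : A ⊓ V ≤ A)
  rw [inf_relIndex_left] at h2
  rw [sup_comm, ← h1, ← h2]
  ring

/-- Thompson's count. -/
theorem isMaxIn_count [Finite G] {S A V A₀ : Subgroup G} (hA : IsMaxIn S A) (hVS : V ≤ S)
    (hV : IsElementaryAbelian 2 V) (hA₀ : A₀ ≤ A) (hc : A₀ ≤ centralizer (V : Set G)) :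
    IsElementaryAbelian 2 (A₀ ⊔ V) ∧ Nat.card ↥(A₀ ⊔ V) ≤ Nat.card A ∧
      Nat.card V ≤ A₀.relIndex A * Nat.card ↥(A₀ ⊓ V) := by
  have h1 : IsElementaryAbelian 2 (A₀ ⊔ V) :=
    PLocal.ElemAbSup.isElementaryAbelian_sup (isElementaryAbelian_mono hA.2.1 hA₀) hV
      (le_centralizer_iff.1 hc)
  have h2 := hA.2.2 (A₀ ⊔ V) (sup_le (hA₀.trans hA.1) hVS) h1
  refine ⟨h1, h2, ?_⟩
  have h3 := card_sup_mul_card_inf (hc.trans (centralizer_le_normalizer _))
  have h4 := card_mul_relIndex hA₀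
  have h5 : Nat.card A₀ * Nat.card V ≤ Nat.card A₀ * (A₀.relIndex A * Nat.card ↥(A₀ ⊓ V)) := by
    calc Nat.card A₀ * Nat.card V = Nat.card ↥(A₀ ⊔ V) * Nat.card ↥(A₀ ⊓ V) := h3.symm
      _ ≤ Nat.card A * Nat.card ↥(A₀ ⊓ V) := Nat.mul_le_mul_right _ h2
      _ = _ := by rw [← h4]; ring
  exact Nat.le_of_mul_le_mul_left h5 Nat.card_pos

variable {J K : Subgroup G}

/-! ### the Sylow 2-subgroup `O₂(K)J` of `KJ` -/

theorem JC.isPGroup_sup (h : JC J K) (hJ : IsPGroup 2 J) : IsPGroup 2 (o2 K ⊔ J : Subgroup G) :=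
  (isPGroup_o2 K).to_sup_of_normal_left' hJ
    (h.le_normalizer.trans (normalizer_le_normalizer_o2 K))

theorem JC.isSylowTwoIn [Finite G] (h : JC J K) (hJ : IsPGroup 2 J) :
    IsSylowTwoIn (o2 K ⊔ J) (K ⊔ J) := by
  refine ⟨sup_le_sup_right (o2_le K) J, h.isPGroup_sup hJ, ?_⟩
  have h1 : o2 K ⊔ J ≤ normalizer (K : Set G) :=
    sup_le ((o2_le K).trans Subgroup.le_normalizer) h.le_normalizer
  have h2 : K ⊔ J = K ⊔ (o2 K ⊔ J) := by
    rw [← sup_assoc, sup_eq_left.2 (o2_le K)]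
  rw [h2, relIndex_sup' h1]
  have h3 : (o2 K ⊔ J).relIndex K ∣ (o2 K).relIndex K := relIndex_dvd_of_le_left K le_sup_left
  rw [h.idx] at h3
  rcases (Nat.dvd_prime Nat.prime_three).1 h3 with h4 | h4 <;> rw [h4] <;> decide

theorem JC.jj_sup [Finite G] (h : JC J K) (hJ : IsPGroup 2 J) : jj (o2 K ⊔ J) = J :=
  h.syl _ (h.isSylowTwoIn hJ) le_sup_right

theorem JC.o2_le_normalizer [Finite G] (h : JC J K) (hJ : IsPGroup 2 J) :
    o2 K ≤ normalizer (J : Set G) := by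
  have h1 := le_normalizer_jj (o2 K ⊔ J)
  rw [h.jj_sup hJ] at h1
  exact le_sup_left.trans h1

/-- `X = KJ` normalizes `W_K`. -/
theorem JC.sup_le_normalizer_wOf (h : JC J K) : K ⊔ J ≤ normalizer (wOf K : Set G) :=
  sup_le (JBasic.le_normalizer_wOf K) h.le_normalizer_wOf

/-- `C_X(W_K) = O₂(X)` for `X = KJ`. -/
theorem JC.inf_centralizer [Finite G] (h : JC J K) (hJ : IsPGroup 2 J) :
    (K ⊔ J) ⊓ centralizer (wOf K : Set G) = o2 (K ⊔ J) := by
  apply le_antisymm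
  · refine le_o2 inf_le_left ?_ ?_
    · intro g
      obtain ⟨n, hn⟩ := IsPGroup.iff_card.1 hJ
      have hg := g.2
      obtain ⟨hg1, hg2⟩ := mem_inf.1 hg
      have hKn : (K.subgroupOf (K ⊔ J)).Normal := by
        rw [normal_subgroupOf_iff_le_normalizer le_sup_left]
        exact sup_le Subgroup.le_normalizer h.le_normalizer
      have h1 := (K.subgroupOf (K ⊔ J)).pow_index_mem ⟨(g : G), hg1⟩
      have h2 : (K.subgroupOf (K ⊔ J)).index ∣ 2 ^ n := by
        change K.relIndex (K ⊔ J) ∣ 2 ^ n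
        rw [relIndex_sup h.le_normalizer, ← hn]
        exact relIndex_dvd_card _ _
      obtain ⟨m, -, hm⟩ := (Nat.dvd_prime_pow Nat.prime_two).1 h2
      rw [hm] at h1
      have h3 : (g : G) ^ (2 ^ m) ∈ K := h1
      have h4 : (g : G) ^ (2 ^ m) ∈ o2 K := h.mem_o2_of_cent h3 (pow_mem hg2 _)
      obtain ⟨l, hl⟩ := isPGroup_o2 K ⟨_, h4⟩
      have hl' : ((g : G) ^ (2 ^ m)) ^ (2 ^ l) = 1 := congrArg Subtype.val hl
      refine ⟨m + l, Subtype.ext ?_⟩
      rw [pow_add, pow_mul]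
      exact hl'
    · have h1 : K ⊔ J ≤ normalizer (centralizer (wOf K : Set G) : Set G) :=
        h.sup_le_normalizer_wOf.trans (normalizer_le_normalizer_centralizer _)
      exact (le_inf Subgroup.le_normalizer h1).trans
        (inf_normalizer_le_normalizer_inf)
  · refine le_inf (o2_le _) (h.two_le_centralizer (isPGroup_o2 _) ?_ ?_)
    · exact le_sup_left.trans (le_normalizer_o2 _)
    · exact (o2_le _).trans h.sup_le_normalizer_wOf

/-- `J` does not centralize `W_K`. -/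
theorem JC.not_le_centralizer [Finite G] (h : JC J K) : ¬ J ≤ centralizer (wOf K : Set G) := by
  intro hc
  obtain ⟨d, hd, -, hd2⟩ := h.exists_d
  apply hd2
  refine h.mem_o2_of_cent hd ?_
  have h1 : K ≤ centralizer (wOf K : Set G) := by
    refine h.comm.ge.trans ((commutator_mono le_rfl hc).trans ?_)
    rw [← le_normalizer_iff_commutator_le_right]
    exact (JBasic.le_normalizer_wOf K).trans (normalizer_le_normalizer_centralizer _)
  exact h1 hd

/-- Some largest elementary abelian subgroup of `O₂(K)J` does not centralize `W_K`. -/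
theorem JC.exists_isMaxIn [Finite G] (h : JC J K) (hJ : IsPGroup 2 J) :
    ∃ A, IsMaxIn (o2 K ⊔ J) A ∧ ¬ A ≤ centralizer (wOf K : Set G) := by
  by_contra hcon
  push Not at hcon
  apply h.not_le_centralizer
  rw [← h.jj_sup hJ]
  exact jj_le_of_forall hcon

/-- `C_{W_K}(J)` has order 2. -/
theorem JC.card_inf_centralizer [Finite G] (h : JC J K) (hJ : IsPGroup 2 J) :
    Nat.card ↥(wOf K ⊓ centralizer (J : Set G)) = 2 := by
  have h1 : Nat.card ↥(wOf K ⊓ centralizer (J : Set G)) ∣ 2 ^ 2 := by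
    have := card_dvd_of_le (inf_le_left : wOf K ⊓ centralizer (J : Set G) ≤ wOf K)
    rwa [h.cardW] at this
  obtain ⟨m, hm, hm'⟩ := (Nat.dvd_prime_pow Nat.prime_two).1 h1
  have h0 : m ≠ 0 := by
    rintro rfl
    rw [pow_zero, card_eq_one] at hm'
    obtain ⟨w, hw, hw1, hfix⟩ := exists_fixed h.isPGroup_wOf h.wOf_ne_bot hJ h.le_normalizer_wOf
    apply hw1
    rw [← mem_bot, ← hm']
    refine mem_inf.2 ⟨hw, mem_centralizer_iff.2 fun j hj => Four.conj_eq_iff_comm.1 (hfix j hj)⟩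
  have h2 : m ≠ 2 := by
    rintro rfl
    apply h.not_le_centralizer
    have h3 : wOf K ⊓ centralizer (J : Set G) = wOf K :=
      Subgroup.eq_of_le_of_card_ge inf_le_left (by rw [hm', h.cardW]; norm_num)
    rw [inf_eq_left] at h3
    exact le_centralizer_iff.1 h3
  have h3 : m = 1 := by omega
  rw [hm', h3, pow_one]

/-! ### `Ω₁(Z(O₂(X)))`, `X = KJ` -/

theorem JC.wOf_le_zc_o2 [Finite G] (h : JC J K) (hJ : IsPGroup 2 J) :
    wOf K ≤ zc (o2 (K ⊔ J)) := by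
  have h1 : K ⊔ J ≤ normalizer (K : Set G) := sup_le Subgroup.le_normalizer h.le_normalizer
  have h2 : wOf K ≤ o2 (K ⊔ J) :=
    (wOf_le_o2 K).trans (le_o2 ((o2_le K).trans le_sup_left) (isPGroup_o2 K)
      (h1.trans (normalizer_le_normalizer_o2 K)))
  intro w hw
  refine mem_zc.2 ⟨h2 hw, fun b hb => ?_, h.sqW w hw⟩
  rw [← h.inf_centralizer hJ] at hb
  exact (mem_centralizer_iff.1 hb.2 w hw).symm

/-- The two kinds of largest elementary abelian subgroups `A` of `S = O₂(K)J`. If `A` does not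
centralize `W_K`, then `B = (A ∩ O₂(X)) Ω₁(Z(O₂(X)))` is also largest, and
`Ω₁(Z(O₂(X))) = W_K (A ∩ Ω₁(Z(O₂(X))))`. -/
theorem JC.isMaxIn_sup [Finite G] (h : JC J K) (hJ : IsPGroup 2 J) {A : Subgroup G}
    (hA : IsMaxIn (o2 K ⊔ J) A) (hAW : ¬ A ≤ centralizer (wOf K : Set G)) :
    IsMaxIn (o2 K ⊔ J) ((A ⊓ o2 (K ⊔ J)) ⊔ zc (o2 (K ⊔ J))) ∧
      wOf K ⊔ (A ⊓ zc (o2 (K ⊔ J))) = zc (o2 (K ⊔ J)) := by
  set X := K ⊔ J with hX
  set Q := o2 X with hQ
  set V := zc Q with hV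
  have hSyl := h.isSylowTwoIn hJ
  have hQS : Q ≤ o2 K ⊔ J := by
    refine o2_le_of_sylow hSyl.1 hSyl.2.1 ?_
    rw [← even_iff_two_dvd, Nat.not_even_iff_odd]
    exact hSyl.2.2
  have hVQ : V ≤ Q := zc_le _
  have hWV : wOf K ≤ V := h.wOf_le_zc_o2 hJ
  have hAX : A ≤ X := hA.1.trans hSyl.1
  have hA2 : IsPGroup 2 A := hSyl.2.1.to_le hA.1
  have hAQ : A ⊓ Q = A ⊓ centralizer (wOf K : Set G) := by
    rw [hQ, ← h.inf_centralizer hJ, ← inf_assoc, inf_eq_left.2 hAX]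
  have hidx : (A ⊓ Q).relIndex A = 2 := by
    rw [hAQ, inf_relIndex_left]
    rcases Plane.relIndex_le_two h.cardW (hAX.trans h.sup_le_normalizer_wOf) hA2 with h1 | h1
    · exact absurd (relIndex_eq_one.1 h1) hAW
    · exact h1
  have hc : A ⊓ Q ≤ centralizer (V : Set G) := inf_le_right.trans (le_centralizer_zc Q)
  obtain ⟨h1, h2, h3⟩ := isMaxIn_count hA (hVQ.trans hQS) (isElementaryAbelian_zc Q) inf_le_left hc
  rw [hidx] at h3
  have h4 : A ⊓ Q ⊓ V = A ⊓ V := by rw [inf_assoc, inf_eq_right.2 hVQ]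
  rw [h4] at h3
  -- `A ∩ V < V`
  have h5 : A ⊓ V ≠ V := by
    intro h6
    rw [inf_eq_right] at h6
    apply hAW
    intro a ha
    rw [mem_centralizer_iff]
    intro w hw
    exact isElementaryAbelian_comm hA.2.1 (h6 (hWV hw)) ha
  have h6 := card_mul_relIndex (inf_le_right : A ⊓ V ≤ V)
  have h7 : (A ⊓ V).relIndex V = 2 := by
    have h8 : (A ⊓ V).relIndex V ≠ 1 := by
      intro h9
      rw [relIndex_eq_one] at h9
      exact h5 (le_antisymm inf_le_right h9)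
    have h9 : (A ⊓ V).relIndex V ≠ 0 :=
      index_ne_zero_of_finite (H := (A ⊓ V).subgroupOf V)
    have h10 : 0 < Nat.card ↥(A ⊓ V) := Nat.card_pos
    have h11 : (A ⊓ V).relIndex V ≤ 2 := by
      have : Nat.card ↥(A ⊓ V) * (A ⊓ V).relIndex V ≤ Nat.card ↥(A ⊓ V) * 2 := by
        rw [h6]; linarith
      exact Nat.le_of_mul_le_mul_left this h10
    omega
  -- the cardinality of `B`
  have h8 := card_sup_mul_card_inf (hc.trans (centralizer_le_normalizer _))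
  have h9 := card_mul_relIndex (inf_le_left : A ⊓ Q ≤ A)
  rw [hidx] at h9
  rw [h7] at h6
  rw [h4] at h8
  have h10 : Nat.card ↥(A ⊓ Q ⊔ V) = Nat.card A := by
    have h11 : 0 < Nat.card ↥(A ⊓ V) := Nat.card_pos
    apply Nat.eq_of_mul_eq_mul_right h11
    rw [h8, ← h9, ← h6]; ring
  refine ⟨⟨sup_le (inf_le_left.trans hA.1) (hVQ.trans hQS), h1, fun B hB hB2 => ?_⟩, ?_⟩
  · rw [h10]; exact hA.2.2 B hB hB2
  · -- `V = W (A ∩ V)`
    apply le_antisymm (sup_le hWV inf_le_right)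
    have h12 : A ⊓ V ≤ wOf K ⊔ A ⊓ V := le_sup_right
    have h13 := relIndex_mul_relIndex (A ⊓ V) (wOf K ⊔ A ⊓ V) V h12 (sup_le hWV inf_le_right)
    rw [h7] at h13
    have h14 : (A ⊓ V).relIndex (wOf K ⊔ A ⊓ V) ≠ 1 := by
      intro h15
      rw [relIndex_eq_one] at h15
      have h16 : wOf K ≤ A := (le_sup_left.trans h15).trans inf_le_left
      apply hAW
      intro a ha
      rw [mem_centralizer_iff]
      intro w hw
      exact isElementaryAbelian_comm hA.2.1 (h16 hw) ha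
    have h15 : (A ⊓ V).relIndex (wOf K ⊔ A ⊓ V) = 2 :=
      ((Nat.dvd_prime Nat.prime_two).1 ⟨_, h13.symm⟩).resolve_left h14
    rw [h15] at h13
    have h16 : (wOf K ⊔ A ⊓ V).relIndex V = 1 := by omega
    exact relIndex_eq_one.1 h16

/-- `W_K ≤ J`. -/
theorem JC.wOf_le_J [Finite G] (h : JC J K) (hJ : IsPGroup 2 J) : wOf K ≤ J := by
  obtain ⟨A, hA, hAW⟩ := h.exists_isMaxIn hJ
  obtain ⟨h1, -⟩ := h.isMaxIn_sup hJ hA hAW
  have h2 := h1.le_jj
  rw [h.jj_sup hJ] at h2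
  exact (h.wOf_le_zc_o2 hJ).trans (le_sup_right.trans h2)

/-- `[Ω₁(Z(J)), K] ≤ W_K`. -/
theorem JC.comm_mem [Finite G] (h : JC J K) (hJ : IsPGroup 2 J) {z k : G} (hz : z ∈ zc J)
    (hk : k ∈ K) : k * z * k⁻¹ * z⁻¹ ∈ wOf K := by
  set X := K ⊔ J with hX
  set Q := o2 X with hQ
  set V := zc Q with hV
  set S := o2 K ⊔ J with hS
  have hSyl := h.isSylowTwoIn hJ
  have hjS : jj S = J := h.jj_sup hJ
  have hQS : Q ≤ S := by
    refine o2_le_of_sylow hSyl.1 hSyl.2.1 ?_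
    rw [← even_iff_two_dvd, Nat.not_even_iff_odd]
    exact hSyl.2.2
  have hVQ : V ≤ Q := zc_le _
  have hWV : wOf K ≤ V := h.wOf_le_zc_o2 hJ
  have hXW : X ≤ normalizer (wOf K : Set G) := h.sup_le_normalizer_wOf
  have hQW : Q ≤ centralizer (wOf K : Set G) := by
    rw [hQ, ← h.inf_centralizer hJ]; exact inf_le_right
  -- a largest elementary abelian subgroup inside `Q`
  obtain ⟨A, hA, hAW⟩ := h.exists_isMaxIn hJ
  obtain ⟨hB, -⟩ := h.isMaxIn_sup hJ hA hAW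
  have hBQ : A ⊓ Q ⊔ V ≤ Q := sup_le inf_le_right hVQ
  have hjQ : jj Q ≤ J := by rw [← hjS]; exact jj_le_jj_of_isMaxIn hB hBQ hQS
  -- `zc J ≤ zj Q`
  have hzY : z ∈ zj Q := by
    have h1 : z ∈ A ⊓ Q ⊔ V := by
      have h2 : z ∈ zj S := by rw [zj_eq_zc, hjS]; exact hz
      exact hB.zj_le h2
    exact mem_zj_of_comm (hBQ h1) (zc_sq hz) fun b hb => zc_comm hz (hjQ hb)
  have hXY : X ≤ normalizer (zj Q : Set G) :=
    (le_normalizer_o2 X).trans (normalizer_le_normalizer_zj Q)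
  -- every largest elementary abelian subgroup `A'` of `S` satisfies `[zj Q, A'] ≤ W`
  have key : ∀ A' : Subgroup G, IsMaxIn S A' → ∀ a ∈ A', ∀ y ∈ zj Q,
      a * y * a⁻¹ * y⁻¹ ∈ wOf K := by
    intro A' hA' a ha y hy
    by_cases hc : A' ≤ centralizer (wOf K : Set G)
    · have hA'Q : A' ≤ Q := by
        rw [hQ, ← h.inf_centralizer hJ]
        exact le_inf (hA'.1.trans hSyl.1) hc
      have h1 : a ∈ jj Q := (hA'.mono hA'Q hQS).le_jj ha
      have h2 := (mem_zj.1 hy).2.1 a h1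
      have h3 : a * y * a⁻¹ * y⁻¹ = 1 := by rw [h2]; group
      rw [h3]; exact one_mem _
    · obtain ⟨hB', hV'⟩ := h.isMaxIn_sup hJ hA' hc
      have hB'Q : A' ⊓ Q ⊔ V ≤ Q := sup_le inf_le_right hVQ
      have h1 : y ∈ A' ⊓ Q ⊔ V := (hB'.mono hB'Q hQS).zj_le hy
      -- `y = b * w`
      have h2 : A' ⊓ Q ⊔ V ≤ (A' ⊓ Q) ⊔ wOf K := by
        refine sup_le le_sup_left ?_
        change wOf K ⊔ A' ⊓ V = V at hV'
        refine hV'.ge.trans (sup_le le_sup_right ?_)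
        exact (inf_le_inf_left _ hVQ).trans le_sup_left
      have h3 := h2 h1
      have h4 : ∃ b ∈ A' ⊓ Q, ∃ w ∈ wOf K, b * w = y := by
        have h5 : A' ⊓ Q ≤ normalizer (wOf K : Set G) :=
          inf_le_right.trans (hQW.trans (centralizer_le_normalizer _))
        rw [← SetLike.mem_coe, coe_mul_of_left_le_normalizer_right _ _ h5] at h3
        exact h3
      obtain ⟨b, hb, w, hw, rfl⟩ := h4
      have h5 : a * b = b * a := isElementaryAbelian_comm hA'.2.1 ha hb.1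
      have h6 : a * w * a⁻¹ ∈ wOf K := Four.conj_mem (hXW (hA'.1.trans hSyl.1 ha)) hw
      have h7 : a * w * a⁻¹ * w⁻¹ ∈ wOf K := mul_mem h6 (inv_mem hw)
      have h8 : (a * w * a⁻¹ * w⁻¹) * b = b * (a * w * a⁻¹ * w⁻¹) :=
        mem_centralizer_iff.1 (hQW hb.2) _ h7
      have h9 : a * (b * w) * a⁻¹ * (b * w)⁻¹ = a * w * a⁻¹ * w⁻¹ := by
        calc a * (b * w) * a⁻¹ * (b * w)⁻¹ = (a * b) * w * a⁻¹ * w⁻¹ * b⁻¹ := by group
          _ = b * (a * w * a⁻¹ * w⁻¹) * b⁻¹ := by rw [h5]; group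
          _ = a * w * a⁻¹ * w⁻¹ := by rw [← h8]; group
      rw [h9]; exact h7
  -- the relative centralizer
  let D : Subgroup G :=
    { carrier := {x | x ∈ X ∧ ∀ y ∈ zj Q, x * y * x⁻¹ * y⁻¹ ∈ wOf K}
      one_mem' := ⟨one_mem _, fun y _ => by
        have : (1 : G) * y * 1⁻¹ * y⁻¹ = 1 := by group
        rw [this]; exact one_mem _⟩
      mul_mem' := by
        rintro x x' ⟨hx, hx2⟩ ⟨hx', hx'2⟩
        refine ⟨mul_mem hx hx', fun y hy => ?_⟩
        have h1 := hx'2 y hy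
        have h2 : x' * y * x'⁻¹ ∈ zj Q := Four.conj_mem (hXY hx') hy
        have h3 := hx2 _ h2
        have h4 : x * x' * y * (x * x')⁻¹ * y⁻¹ =
            (x * (x' * y * x'⁻¹) * x⁻¹ * (x' * y * x'⁻¹)⁻¹) * (x' * y * x'⁻¹ * y⁻¹) := by group
        rw [h4]
        exact mul_mem h3 h1
      inv_mem' := by
        rintro x ⟨hx, hx2⟩
        refine ⟨inv_mem hx, fun y hy => ?_⟩
        have h1 : x⁻¹ * y * x ∈ zj Q := Four.conj_mem' (hXY hx) hy
        have h2 := hx2 _ h1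
        have h3 : x * (x⁻¹ * y * x) * x⁻¹ * (x⁻¹ * y * x)⁻¹ =
            (x⁻¹ * y * x⁻¹⁻¹ * y⁻¹)⁻¹ := by group
        rw [h3] at h2
        exact (inv_mem_iff).1 h2 }
  have hDX : X ≤ normalizer (D : Set G) := by
    rw [le_normalizer_iff]
    rintro g hg x ⟨hx, hx2⟩
    refine ⟨mul_mem (mul_mem hg hx) (inv_mem hg), fun y hy => ?_⟩
    have h1 : g⁻¹ * y * g ∈ zj Q := Four.conj_mem' (hXY hg) hy
    have h2 := Four.conj_mem (hXW hg) (hx2 _ h1)
    have h3 : g * x * g⁻¹ * y * (g * x * g⁻¹)⁻¹ * y⁻¹ =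
        g * (x * (g⁻¹ * y * g) * x⁻¹ * (g⁻¹ * y * g)⁻¹) * g⁻¹ := by group
    rw [h3]; exact h2
  have hJD : J ≤ D := by
    rw [← hjS]
    refine jj_le_of_forall fun A' hA' a ha => ⟨hSyl.1 (hA'.1 ha), key A' hA' a ha⟩
  have hKD : K ≤ D := by
    refine h.comm.ge.trans ((commutator_mono le_rfl hJD).trans ?_)
    rw [← le_normalizer_iff_commutator_le_right]
    exact le_sup_left.trans hDX
  exact (hKD hk).2 z hzY

theorem JC.o2_le_normalizer_zc [Finite G] (h : JC J K) (hJ : IsPGroup 2 J) :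
    o2 K ≤ normalizer (zc J : Set G) :=
  (h.o2_le_normalizer hJ).trans (normalizer_le_normalizer_zc J)

/-- **S2946, main step**: every `z ∈ Ω₁(Z(J))` is of the form `z' w` with `z'` centralizing `KJ` and
`w ∈ W_K` centralizing `J`. -/
theorem JC.exists_split [Finite G] (h : JC J K) (hJ : IsPGroup 2 J) {z : G} (hz : z ∈ zc J) :
    ∃ z' ∈ zc J, z' ∈ centralizer ((K ⊔ J : Subgroup G) : Set G) ∧
      ∃ w ∈ wOf K, w ∈ zc J ∧ z = z' * w := by
  have hWJ := h.wOf_le_J hJ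
  -- an element of order 3
  obtain ⟨d, hd, hdo, hd2⟩ := h.exists_d
  have hd3 : d ^ 3 = 1 := by
    obtain ⟨n, hn⟩ := isPGroup_o2 K ⟨_, h.pow_three hd⟩
    have hn' : (d ^ 3) ^ (2 ^ n) = 1 := congrArg Subtype.val hn
    have h1 : Odd (orderOf (d ^ 3)) := hdo.of_dvd_nat (orderOf_pow_dvd 3)
    have h2 : orderOf (d ^ 3) ∣ 2 ^ n := orderOf_dvd_of_pow_eq_one hn'
    have h3 : Nat.Coprime (orderOf (d ^ 3)) (2 ^ n) := Nat.Coprime.pow_right _ h1.coprime_two_right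
    have h4 : orderOf (d ^ 3) = 1 := Nat.eq_one_of_dvd_coprimes h3 dvd_rfl h2
    exact orderOf_eq_one_iff.1 h4
  have hdW : d ∈ normalizer (wOf K : Set G) := JBasic.le_normalizer_wOf K hd
  have hzW : ∀ w ∈ wOf K, w * z = z * w := fun w hw => zc_comm hz (hWJ hw)
  have hWcomm : ∀ v ∈ wOf K, ∀ w ∈ wOf K, v * w = w * v := fun v hv w hw =>
    Four.comm_of_sq h.sqW hv hw
  -- `w ↦ w (d w d⁻¹)⁻¹` is surjective on `W`
  have hfinW : Finite (wOf K) := inferInstance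
  let f : wOf K → wOf K := fun w =>
    ⟨w * (d * w * d⁻¹)⁻¹, mul_mem w.2 (inv_mem (Four.conj_mem hdW w.2))⟩
  have hf : Function.Injective f := by
    rintro ⟨v, hv⟩ ⟨w, hw⟩ hvw
    have h1 : v * (d * v * d⁻¹)⁻¹ = w * (d * w * d⁻¹)⁻¹ := congrArg Subtype.val hvw
    have h2 : w⁻¹ * v ∈ wOf K := mul_mem (inv_mem hw) hv
    by_contra hne
    have h3 : w⁻¹ * v ≠ 1 := by
      intro h4
      apply hne
      exact Subtype.ext (by rw [inv_mul_eq_one] at h4; exact h4.symm)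
    apply h.conj_ne hd hd2 h2 h3
    have h5 : w⁻¹ * v = (d * w * d⁻¹)⁻¹ * (d * v * d⁻¹) := by
      have h6 : v = w * (d * w * d⁻¹)⁻¹ * (d * v * d⁻¹) := by rw [← h1]; group
      have h7 : w⁻¹ * v = w⁻¹ * (w * (d * w * d⁻¹)⁻¹ * (d * v * d⁻¹)) := congrArg _ h6
      rw [h7]; group
    rw [h5]
    calc d * ((d * w * d⁻¹)⁻¹ * (d * v * d⁻¹)) * d⁻¹ = d * (w⁻¹ * v) * d⁻¹ := by rw [h5]
      _ = (d * w * d⁻¹)⁻¹ * (d * v * d⁻¹) := by group
  have hsurj : Function.Surjective f := Finite.surjective_of_injective hf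
  obtain ⟨⟨w, hw⟩, hfw⟩ := hsurj ⟨_, h.comm_mem hJ hz hd⟩
  have hfw' : w * (d * w * d⁻¹)⁻¹ = d * z * d⁻¹ * z⁻¹ := congrArg Subtype.val hfw
  set z' := z * w with hz'
  have hdwW : d * w * d⁻¹ ∈ wOf K := Four.conj_mem hdW hw
  -- `d` centralizes `z'`
  have hdz' : d * z' * d⁻¹ = z' := by
    have h1 : d * z * d⁻¹ = w * (d * w * d⁻¹)⁻¹ * z := by rw [hfw']; group
    calc d * z' * d⁻¹ = (d * z * d⁻¹) * (d * w * d⁻¹) := by rw [hz']; group
      _ = w * ((d * w * d⁻¹)⁻¹ * z) * (d * w * d⁻¹) := by rw [h1]; group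
      _ = w * (z * (d * w * d⁻¹)⁻¹) * (d * w * d⁻¹) := by
        rw [hzW _ (inv_mem hdwW)]
      _ = w * z := by group
      _ = z' := by rw [hzW w hw]
  -- `O₂(K)` centralizes `z'`
  have hOz' : ∀ x ∈ o2 K, x * z' * x⁻¹ = z' := by
    -- commutators lie in `W ∩ zc J`
    have h1 : ∀ x ∈ o2 K, x * z' * x⁻¹ * z'⁻¹ ∈ wOf K ⊓ centralizer (J : Set G) := by
      intro x hx
      have hxw : x * w * x⁻¹ = w := by
        have := mem_centralizer_iff.1 (o2_le_centralizer_wOf K hx) w hw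
        rw [← this]; group
      have h2 : x * z' * x⁻¹ * z'⁻¹ = x * z * x⁻¹ * z⁻¹ := by
        calc x * z' * x⁻¹ * z'⁻¹ = (x * z * x⁻¹) * (x * w * x⁻¹) * w⁻¹ * z⁻¹ := by
              rw [hz']; group
          _ = _ := by rw [hxw]; group
      rw [h2]
      refine mem_inf.2 ⟨h.comm_mem hJ hz (o2_le K hx), ?_⟩
      have h3 : x * z * x⁻¹ ∈ zc J := Four.conj_mem (h.o2_le_normalizer_zc hJ hx) hz
      exact mul_mem (zc_le_centralizer J h3) (inv_mem (zc_le_centralizer J hz))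
    intro x hx
    by_contra hne
    have hxd : d * x * d⁻¹ ∈ o2 K := Four.conj_mem (le_normalizer_o2 K hd) hx
    have h2 := h1 x hx
    have h3 := h1 _ hxd
    have h4 : d * x * d⁻¹ * z' * (d * x * d⁻¹)⁻¹ * z'⁻¹ = d * (x * z' * x⁻¹ * z'⁻¹) * d⁻¹ := by
      have h5 : d⁻¹ * z' * d = z' := by
        calc d⁻¹ * z' * d = d⁻¹ * (d * z' * d⁻¹) * d := by rw [hdz']
          _ = z' := by group
      calc d * x * d⁻¹ * z' * (d * x * d⁻¹)⁻¹ * z'⁻¹ = d * (x * (d⁻¹ * z' * d) * x⁻¹ *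
            (d⁻¹ * z' * d)⁻¹) * d⁻¹ := by group
        _ = _ := by rw [h5]
    rw [h4] at h3
    set c := x * z' * x⁻¹ * z'⁻¹ with hc
    have hc1 : c ≠ 1 := by
      intro h6
      apply hne
      rw [hc] at h6
      exact mul_inv_eq_one.1 h6
    -- the group `W ∩ C(J)` has order 2
    have h6 : d * c * d⁻¹ = c := by
      have h7 := h.card_inf_centralizer hJ
      have h8 : Finite ↥(wOf K ⊓ centralizer (J : Set G)) := inferInstance
      obtain ⟨u, v, huv, hall⟩ := Nat.card_eq_two_iff.1 h7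
      have h9 : ∀ y : ↥(wOf K ⊓ centralizer (J : Set G)), y = u ∨ y = v := fun y => by
        have : y ∈ ({u, v} : Set _) := by rw [hall]; trivial
        simpa using this
      have hdc1 : d * c * d⁻¹ ≠ 1 := by
        intro h10
        apply hc1
        calc c = d⁻¹ * (d * c * d⁻¹) * d := by group
          _ = 1 := by rw [h10]; group
      have e1 := h9 1
      have e2 := h9 ⟨c, h2⟩
      have e3 := h9 ⟨_, h3⟩
      have n1 : (⟨c, h2⟩ : ↥(wOf K ⊓ centralizer (J : Set G))) ≠ 1 := fun h10 =>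
        hc1 (congrArg Subtype.val h10)
      have n2 : (⟨d * c * d⁻¹, h3⟩ : ↥(wOf K ⊓ centralizer (J : Set G))) ≠ 1 := fun h10 =>
        hdc1 (congrArg Subtype.val h10)
      have e4 : (⟨d * c * d⁻¹, h3⟩ : ↥(wOf K ⊓ centralizer (J : Set G))) = ⟨c, h2⟩ := by
        rcases e1 with e1 | e1 <;> rcases e2 with e2 | e2 <;> rcases e3 with e3 | e3 <;>
          first
          | exact e3.trans e2.symm
          | exact absurd (e2.trans e1.symm) n1
          | exact absurd (e3.trans e1.symm) n2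
      exact congrArg Subtype.val e4
    exact h.conj_ne hd hd2 (mem_inf.1 h2).1 hc1 h6
  -- `K` centralizes `z'`
  have hKz' : K ≤ centralizer ({z'} : Set G) := by
    rw [← h.sup_zpowers hd hd2]
    refine sup_le (fun x hx => ?_) (zpowers_le.2 ?_)
    · rw [mem_centralizer_singleton_iff]
      exact Four.conj_eq_iff_comm.1 (hOz' x hx)
    · rw [mem_centralizer_singleton_iff]
      exact Four.conj_eq_iff_comm.1 hdz'
  -- `J` centralizes `z'`
  have hJz' : J ≤ centralizer ({z'} : Set G) := by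
    intro j hj
    rw [mem_centralizer_singleton_iff, ← Four.conj_eq_iff_comm]
    have h1 : j * z' * j⁻¹ * z'⁻¹ ∈ wOf K := by
      have h2 : j * z * j⁻¹ = z := by
        rw [zc_comm hz hj]; group
      have h3 : j * z' * j⁻¹ * z'⁻¹ = z * ((j * w * j⁻¹) * w⁻¹) * z⁻¹ := by
        calc j * z' * j⁻¹ * z'⁻¹ = (j * z * j⁻¹) * (j * w * j⁻¹) * w⁻¹ * z⁻¹ := by
              rw [hz']; group
          _ = _ := by rw [h2]; group
      have h4 : (j * w * j⁻¹) * w⁻¹ ∈ wOf K :=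
        mul_mem (Four.conj_mem (h.le_normalizer_wOf hj) hw) (inv_mem hw)
      rw [h3, ← hzW _ h4]
      have h5 : j * w * j⁻¹ * w⁻¹ * z * z⁻¹ = j * w * j⁻¹ * w⁻¹ := by group
      rw [h5]; exact h4
    by_contra hne
    have h2 : j * z' * j⁻¹ * z'⁻¹ ≠ 1 := fun h3 => hne (mul_inv_eq_one.1 h3)
    refine h.conj_ne hd hd2 h1 h2 ?_
    have h3 : ∀ k ∈ K, k * z' * k⁻¹ = z' := fun k hk =>
      Four.conj_eq_iff_comm.2 (mem_centralizer_singleton_iff.1 (hKz' hk))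
    have h4 : j⁻¹ * d * j ∈ K := Four.conj_mem' (h.le_normalizer hj) hd
    have h5 : d * (j * z' * j⁻¹) * d⁻¹ = j * z' * j⁻¹ := by
      calc d * (j * z' * j⁻¹) * d⁻¹ = j * ((j⁻¹ * d * j) * z' * (j⁻¹ * d * j)⁻¹) * j⁻¹ := by group
        _ = _ := by rw [h3 _ h4]
    calc d * (j * z' * j⁻¹ * z'⁻¹) * d⁻¹ = (d * (j * z' * j⁻¹) * d⁻¹) * (d * z' * d⁻¹)⁻¹ := by
          group
      _ = _ := by rw [h5, h3 d hd]
  -- `w ∈ zc J`
  have hwJ : w ∈ zc J := by
    refine mem_zc.2 ⟨hWJ hw, fun b hb => ?_, h.sqW w hw⟩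
    have h1 := mem_centralizer_singleton_iff.1 (hJz' hb)
    have h2 := zc_comm hz hb
    -- `b z w = z w b`
    rw [hz'] at h1
    have h3 : z * (b * w) = z * (w * b) := by
      calc z * (b * w) = (z * b) * w := by group
        _ = (b * z) * w := by rw [h2]
        _ = z * w * b := by rw [mul_assoc, h1]
        _ = z * (w * b) := by group
    exact mul_left_cancel h3
  refine ⟨z', mul_mem hz hwJ, ?_, w, hw, hwJ, ?_⟩
  · rw [mem_centralizer_iff]
    intro x hx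
    exact mem_centralizer_singleton_iff.1 ((sup_le hKz' hJz' : K ⊔ J ≤ _) hx)
  · have h1 : w * w = 1 := by rw [← pow_two]; exact h.sqW w hw
    rw [hz', mul_assoc, h1, mul_one]

end Cfsg.Agent.H250.JBasic
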